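import Cfsg.Agent.H528.FldTools
import Cfsg.Agent.H277.ClsOrth

/-!
# S4761 (helper596), the row of `Ω_{2m+1}(q)` (helper528)
-/

set_option autoImplicit false

namespace Cfsg.Agent.H528.FldOdd

open Cfsg Cfsg.Agent.H596.Fld Cfsg.Agent.H528.FldTools Cfsg.Agent.H277.Cls Cfsg.Agent.H277.ClsOrth Matrix
open Cfsg.Agent.ClassicalGeometry.OrthSemi Cfsg.Agent.LieClassical.OrthCore Cfsg.Agent.LieClassical.OrthTrans
  Cfsg.Agent.LieClassical.OrthSimple Cfsg.Agent.LieClassical.OrthFinite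
open Cfsg.Agent.H198.OrthFrame (Phi Sim simGam S Phi_eq_one_iff)
open Cfsg.Agent.H198.Carriers
open Cfsg.Agent.H185.OrthCent

theorem card_range_S {ι : Type} [Fintype ι] [DecidableEq ι] {F : Type*} [Field F] [Finite F]
    {Q : QuadraticForm F (ι → F)} (hG : Good Q) (H : Subgroup (Sim Q)) :
    Nat.card ↥(H.map (S hG)) ∣ Nat.card (GL ι F) := by
  have h1 : Nat.card ↥(H.map (S hG)) ∣ Nat.card ↥H :=
    Subgroup.card_dvd_of_surjective ((S hG).subgroupMap H) ((S hG).subgroupMap_surjective H)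
  exact (h1.trans (Subgroup.card_subgroup_dvd_card H)).trans (Subgroup.card_subgroup_dvd_card (Sim Q))

theorem twoMoved {F : Type} [Field F] [Fintype F] {p : ℕ} [CharP F p] (ho : Odd (Fintype.card F)) {m : ℕ}
    (hm : 3 ≤ m) (hZ : Subgroup.center (POmega F (quadFormOdd m F)) = ⊥) :
    TwoMoved (POmega F (quadFormOdd m F)) := by
  intro α hr hα
  have hpp : p.Prime := CharP.char_is_prime F p
  have : Fact p.Prime := ⟨hpp⟩
  have hfin : Finite (POmega F (quadFormOdd m F)) := Quotient.finite _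
  obtain ⟨f, -, hF⟩ := FiniteField.card F p
  have hp2 : p ≠ 2 := by
    rintro rfl
    rw [hF] at ho
    exact (Nat.not_even_iff_odd.2 ho) (Nat.even_pow.2 ⟨even_two, f.pos.ne'⟩)
  have h2 : (2 : F) ≠ 0 := two_ne_zero hpp hp2
  have hop : Odd p := hpp.odd_of_ne_two hp2
  have hord := S0292.result rfl ho m hm
  have hqS : Fintype.card F ∣ 2 * Nat.card (POmega F (quadFormOdd m F)) := by
    rw [hord]
    exact (dvd_pow_self _ (by positivity)).mul_right _
  have hS : ∀ j : ℕ, 1 ≤ j → 2 * j ≤ 2 * m →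
      Fintype.card F ^ (2 * j) - 1 ∣ 2 * Nat.card (POmega F (quadFormOdd m F)) := by
    intro j h1 h3
    rw [hord]
    refine Dvd.dvd.mul_left ?_ _
    have h4 := Finset.dvd_prod_of_mem (fun i => Fintype.card F ^ (2 * (i + 1)) - 1)
      (Finset.mem_range.2 (show j - 1 < m by omega))
    rwa [show j - 1 + 1 = j by omega] at h4
  have h2K : 2 ∣ Nat.card (POmega F (quadFormOdd m F)) := by
    have h3 := hS 1 le_rfl (by omega)
    have h4 : 4 ∣ Fintype.card F ^ (2 * 1) - 1 := by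
      obtain ⟨k, hk⟩ := ho
      refine ⟨k * (k + 1), ?_⟩
      rw [hk]
      have : (2 * k + 1) ^ (2 * 1) = 4 * (k * (k + 1)) + 1 := by ring
      rw [this, Nat.add_sub_cancel]
    have h5 : 2 * 2 ∣ 2 * Nat.card (POmega F (quadFormOdd m F)) := h4.trans h3
    exact Nat.dvd_of_mul_dvd_mul_left (by norm_num) h5
  have hG := good_oddQ (F := F) (m := m) (by omega) h2
  have hfix : ∀ σ : F ≃+* F, Fix σ (oddQ m F) := fun σ => S2714.map_oddQ m (σ : F →+* F)
  have hcard : Nat.card (MulAut (POmega F (quadFormOdd m F))) ∣ 2 * f * Nat.card (POmega F (quadFormOdd m F)) := by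
    rw [S0816.result p f f.pos hF hop m hm]
  obtain ⟨g, σ, hg, hσ, -, hrf⟩ := exists_field hZ (Schreier.ClassPOmega.sch_odd hm h2) hF (fldHom hG hfix)
    (fldHom_injective hG hfix) hcard
    (fun s hs hsd => by rwa [(Nat.prime_dvd_prime_iff_eq hs Nat.prime_two).1 hsd]) hr ((hr.coprime_iff_not_dvd).2 hα)
  have hcl : IsFieldAutClassPOmega (quadFormOdd m F) α :=
    ⟨g, fldHom hG hfix σ, σ, hσ, (isFieldAut_iff hG (hfix σ) _).2 rfl, hg⟩
  obtain ⟨F₀, _, _, _, hF₀, hj, hq₀, hpow⟩ := exists_subfield (p := p) f.ne_zero hr hrf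
  obtain ⟨-, hiso, -⟩ := S2714.result hF f.pos ho hm α hcl hr rfl F₀ hF₀
  have h20 : (2 : F₀) ≠ 0 := two_ne_zero hpp hp2
  have hG₀ := good_oddQ (F := F₀) (m := m) (by omega) h20
  have hdvd : Nat.card (fx α) ∣ Nat.card (inndiagPOmegaOdd m F₀) := by
    refine card_fx_dvd hZ (H := inndiagPOmegaOdd m F) (fun x => ?_) hiso
    rw [inndiag_odd_eq hG]
    have h6 := Cfsg.Agent.H185.SplitOne.inn_le hG (C := ⊤) (fun x _ => Subgroup.mem_top _) ⟨x, rfl⟩
    rw [← MonoidHom.range_eq_map] at h6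
    exact h6
  refine moved_of_bound hr hα h2K (q₀ := p ^ ((f : ℕ) / orderOf α)) (q := Fintype.card F) (d := 2) (N := 2 * m + 1)
    (M := 2 * m) hq₀ (by rw [hpow, hF]) (fun s hs hsd => by rwa [(Nat.prime_dvd_prime_iff_eq hs Nat.prime_two).1 hsd])
    hqS hS (by omega) (Or.inl (by omega)) ?_
  intro s hs hsq hsf
  have h7 : s ∣ Nat.card (GL (Unit ⊕ (Fin m ⊕ Fin m)) F₀) := by
    refine (hsf.trans hdvd).trans ?_
    rw [inndiag_odd_eq hG₀, MonoidHom.range_eq_map]
    exact card_range_S hG₀ ⊤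
  obtain ⟨i, hi1, hi2, hi3⟩ := dvd_gl hF₀ hs hsq h7
  refine ⟨i, hi1, ?_, hi3.trans (pow_sub_dvd _ _)⟩
  rw [Fintype.card_sum, Fintype.card_sum, Fintype.card_fin, Fintype.card_unit] at hi2
  omega

/-- **S4761, the row `Ω_{2m+1}(q)`** -/
theorem row_oodd {r : ℕ} {G : Type*} [Group G] [Finite G] [IsSimpleGroup G] (hc : ∃ a b : G, a * b ≠ b * a)
    (hG : IsPOmegaOddChar r G) : TwoMoved G := by
  obtain ⟨F, _, _, _, m, hm, ho, ⟨e⟩⟩ := hG
  refine TwoMoved.congr e ?_
  have hZG : Subgroup.center G = ⊥ := by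
    rcases (inferInstance : (Subgroup.center G).Normal).eq_bot_or_eq_top with h | h
    · exact h
    · obtain ⟨a, b, hab⟩ := hc
      exact absurd ((Subgroup.mem_center_iff.1 (h ▸ Subgroup.mem_top b)) a) hab
  have hZ : Subgroup.center (POmega F (quadFormOdd m F)) = ⊥ := by
    rw [eq_bot_iff]
    intro z hz
    have h1 : e.symm z ∈ Subgroup.center G := by
      rw [Subgroup.mem_center_iff] at hz ⊢
      intro x
      apply e.injective
      rw [map_mul, map_mul, e.apply_symm_apply]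
      exact hz (e x)
    rw [hZG, Subgroup.mem_bot] at h1
    rw [Subgroup.mem_bot]
    exact e.symm.injective (by rw [h1, map_one])
  exact twoMoved (p := r) ho hm hZ

end Cfsg.Agent.H528.FldOdd
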