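import Cfsg.Agent.H596.FldFacts

/-!
# S4761 (helper596): a common tool for the classical rows (helper528)

* `moved_of_bound` : the two primes;
* `dvd_gl` : primes dividing `|GL_n(q₀)|`.
-/

set_option autoImplicit false

namespace Cfsg.Agent.H528.FldTools

open Cfsg.Agent.H596.Fld

/-- **Classical groups.** `α` of prime order `p` prime to `|S|`, `q = q₀ ^ p`; the primes (not dividing `q₀`) dividing the
number of fixed points divide some `q₀ ^ (2 i) - 1`, `i ≤ N`; the order of `S`, times `d`, is divisible by `q` and by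
the `q ^ (2 j) - 1`, `2 j ≤ M`. -/
theorem moved_of_bound {S : Type*} [Group S] [Finite S] {α : MulAut S} (hα : (orderOf α).Prime)
    (hd : ¬ orderOf α ∣ Nat.card S) (h2 : 2 ∣ Nat.card S) {q₀ q d N M : ℕ} (hq0 : 2 ≤ q₀) (hq : q₀ ^ orderOf α = q)
    (hdd : ∀ s : ℕ, s.Prime → s ∣ d → s ∣ Nat.card S) (hqS : q ∣ d * Nat.card S)
    (hS : ∀ j : ℕ, 1 ≤ j → 2 * j ≤ M → q ^ (2 * j) - 1 ∣ d * Nat.card S) (hM : 2 ≤ M)
    (hNM : N ≤ M + 1 ∨ (N ≤ M + 2 ∧ Even N))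
    (hfx : ∀ s : ℕ, s.Prime → ¬ s ∣ q₀ → s ∣ Nat.card (fx α) → ∃ i, 1 ≤ i ∧ i ≤ N ∧ s ∣ q₀ ^ (2 * i) - 1) :
    Moved α := by
  set p := orderOf α with hp
  have hp2 : p ≠ 2 := fun h => hd (h ▸ h2)
  have hpo : Odd p := hα.odd_of_ne_two hp2
  have hdS : ∀ s : ℕ, s.Prime → s ∣ d * Nat.card S → s ∣ Nat.card S := fun s hs h =>
    ((Nat.Prime.dvd_mul hs).1 h).elim (hdd s hs) id
  have hq1 : 1 ≤ q := by rw [← hq]; exact Nat.one_le_pow _ _ (by omega)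
  have hqq : q ^ 2 - 1 = (q + 1) * (q - 1) := by
    have := Nat.sq_sub_sq q 1
    simpa using this
  have hS1 := hS 1 le_rfl (by omega)
  rw [mul_one, hqq] at hS1
  have hpS : ¬ p ∣ d * Nat.card S := fun h => hd (hdS p hα h)
  have h1 : ¬ p ∣ q₀ ^ p - 1 := by
    rw [hq]
    exact fun h => hpS ((h.mul_left _).trans hS1)
  have h1' : ¬ p ∣ q₀ ^ p + 1 := by
    rw [hq]
    exact fun h => hpS ((h.mul_right _).trans hS1)
  obtain ⟨s₁, s₂, hs₁, hs₂, hne, hd₁, hd₂, ho₁, ho₂, hn₁, hn₂⟩ := exists_primes hα hp2 hq0 h1 h1'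
  rw [hq] at hd₁ hd₂
  have key : ∀ s : ℕ, s.Prime → ¬ s ∣ q₀ → (∀ i, s ∣ q₀ ^ i - 1 → p ∣ i) → ¬ s ∣ Nat.card (fx α) := by
    intro s hs hsq hso hcon
    obtain ⟨i, hi1, hiN, hi⟩ := hfx s hs hsq hcon
    have h3 : p ∣ i := (((Nat.coprime_primes hα Nat.prime_two).2 hp2).dvd_of_dvd_mul_left (hso _ hi))
    have h4 : p ≤ N := (Nat.le_of_dvd (by omega) h3).trans hiN
    -- `p` divides `q ^ (p - 1) - 1`
    obtain ⟨k, hk⟩ := hpo
    have h5 : 2 * k ≤ M := by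
      rcases hNM with h | ⟨h, h'⟩
      · omega
      · obtain ⟨l, hl⟩ := h'
        omega
    have hk1 : 1 ≤ k := by
      have := hα.two_le
      omega
    have hpq : ¬ p ∣ q := fun h => hpS (h.trans hqS)
    have h6 : q ^ (p - 1) ≡ 1 [MOD p] := Nat.ModEq.pow_card_sub_one_eq_one hα ((Nat.coprime_comm.1
      ((hα.coprime_iff_not_dvd).2 hpq)))
    have h7 : p ∣ q ^ (2 * k) - 1 := by
      rw [show p - 1 = 2 * k by omega] at h6
      exact (Nat.modEq_iff_dvd' (Nat.one_le_pow _ _ hq1)).1 h6.symm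
    exact hpS (h7.trans (hS k hk1 h5))
  exact moved_of_primes hα hd hs₁ hs₂ hne (hdS _ hs₁ ((hd₁.mul_left _).trans hS1))
    (hdS _ hs₂ ((hd₂.mul_right _).trans hS1)) (key s₁ hs₁ hn₁ ho₁)
    (key s₂ hs₂ hn₂ fun i hi => (Dvd.intro_left 2 rfl).trans (ho₂ i hi))

/-- primes dividing `|GL_n(q₀)|` -/
theorem dvd_gl {F : Type*} [Field F] [Fintype F] {ι : Type*} [Fintype ι] [DecidableEq ι] {q₀ : ℕ}
    (hF : Fintype.card F = q₀) {s : ℕ} (hs : s.Prime) (hq : ¬ s ∣ q₀) (h : s ∣ Nat.card (GL ι F)) :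
    ∃ i, 1 ≤ i ∧ i ≤ Fintype.card ι ∧ s ∣ q₀ ^ i - 1 := by
  have e := Fintype.equivFin ι
  have h1 : Nat.card (GL ι F) = Nat.card (GL (Fin (Fintype.card ι)) F) := by
    apply Nat.card_congr
    exact (Units.mapEquiv (Matrix.reindexAlgEquiv F F e).toMulEquiv).toEquiv
  rw [h1, Matrix.card_GL_field, hF] at h
  obtain ⟨i, -, hi⟩ := (Prime.dvd_finsetProd_iff hs.prime _).1 h
  have h2 : q₀ ^ Fintype.card ι - q₀ ^ (i : ℕ) = q₀ ^ (i : ℕ) * (q₀ ^ (Fintype.card ι - i) - 1) := by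
    rw [Nat.mul_sub, mul_one, ← pow_add, Nat.add_sub_cancel' i.2.le]
  rw [h2] at hi
  refine ⟨Fintype.card ι - i, by have := i.2; omega, by omega, ?_⟩
  exact ((Nat.Prime.dvd_mul hs).1 hi).resolve_left fun h3 => hq (hs.dvd_of_dvd_pow h3)

/-- `q ^ i - 1` divides `q ^ (2 i) - 1` -/
theorem pow_sub_dvd (q i : ℕ) : q ^ i - 1 ∣ q ^ (2 * i) - 1 := by
  have := Nat.sub_dvd_pow_sub_pow (q ^ i) 1 2
  rwa [one_pow, ← pow_mul, mul_comm i 2] at this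

end Cfsg.Agent.H528.FldTools
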